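import Mathlib
import Cfsg.Agent.LowerCentral.Bracket

/-!
# The Lie ring of the lower central series

`Assoc G` is the direct sum of the sections `γ n / γ (n + 1)` with the bracket induced by the
group commutator; `sec n g` is the class of `g` in degree `n` (or `0` when `g` is not in `γ n`).
An automorphism `α` induces `endo α`; its norm vanishes when `α` has prime order and fixes only
the identity.
-/

set_option autoImplicit false

open scoped DirectSum commutatorElement

namespace CfsgLib.LieFPF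

variable {G : Type*} [Group G]

/-- The lower central series of `G`. -/
abbrev lcsT (G : Type*) [Group G] (n : ℕ) : Subgroup G := (⊤ : Subgroup G).lowerCentralSeries n

theorem bracketTop_lcsT (i : ℕ) : ∀ k, CfsgLib.LowerCentral.bracketTop (lcsT G i) k = lcsT G (i + k)
  | 0 => rfl
  | k + 1 => by
    rw [CfsgLib.LowerCentral.bracketTop_succ, bracketTop_lcsT i k, ← add_assoc]
    exact (Subgroup.lowerCentralSeries_succ _ _).symm

theorem commutator_lcsT_le (i j : ℕ) : ⁅lcsT G i, lcsT G j⁆ ≤ lcsT G (i + j + 1) := by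
  have h := CfsgLib.LowerCentral.commutator_lowerCentralSeries_le (lcsT G i) j
  rwa [bracketTop_lcsT, ← add_assoc] at h

theorem comm_mem_lcsT {i j : ℕ} {g h : G} (hg : g ∈ lcsT G i) (hh : h ∈ lcsT G j) :
    ⁅g, h⁆ ∈ lcsT G (i + j + 1) :=
  commutator_lcsT_le i j (Subgroup.commutator_mem_commutator hg hh)

theorem lcsT_antitone {m n : ℕ} (h : m ≤ n) : lcsT G n ≤ lcsT G m := by
  induction h with
  | refl => exact le_rfl
  | step _ ih =>
    refine le_trans ?_ ih
    show (⊤ : Subgroup G).lowerCentralSeries (_ + 1) ≤ _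
    rw [Subgroup.lowerCentralSeries_succ]
    exact Subgroup.commutator_le_left _ _

/-- The next term inside a term. -/
abbrev secSub (G : Type*) [Group G] (n : ℕ) : Subgroup (lcsT G n) :=
  (lcsT G (n + 1)).subgroupOf (lcsT G n)

instance instSecCommGroup (n : ℕ) : CommGroup (lcsT G n ⧸ secSub G n) :=
  { (inferInstance : Group (lcsT G n ⧸ secSub G n)) with
    mul_comm := fun a b => by
      obtain ⟨a, rfl⟩ := QuotientGroup.mk_surjective a
      obtain ⟨b, rfl⟩ := QuotientGroup.mk_surjective b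
      rw [← QuotientGroup.mk_mul, ← QuotientGroup.mk_mul, QuotientGroup.eq, Subgroup.mem_subgroupOf]
      have h := lcsT_antitone (G := G) (show n + 1 ≤ n + n + 1 by omega)
        (comm_mem_lcsT (inv_mem b.2) (inv_mem a.2))
      simpa [commutatorElement_def, mul_assoc] using h }

/-- The sum of the sections of the lower central series. -/
abbrev Assoc (G : Type*) [Group G] := ⨁ n : ℕ, Additive (lcsT G n ⧸ secSub G n)

open Classical in
/-- The class of `g` in degree `n`. -/
noncomputable def sec (n : ℕ) (g : G) : Assoc G :=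
  if h : g ∈ lcsT G n then
    DirectSum.of (fun k => Additive (lcsT G k ⧸ secSub G k)) n
      (Additive.ofMul (QuotientGroup.mk ⟨g, h⟩))
  else 0

theorem sec_of_mem {n : ℕ} {g : G} (h : g ∈ lcsT G n) :
    sec n g = DirectSum.of (fun k => Additive (lcsT G k ⧸ secSub G k)) n
      (Additive.ofMul (QuotientGroup.mk ⟨g, h⟩)) := dif_pos h

theorem sec_mul {n : ℕ} {g h : G} (hg : g ∈ lcsT G n) (hh : h ∈ lcsT G n) :
    sec n (g * h) = sec n g + sec n h := by
  rw [sec_of_mem hg, sec_of_mem hh, sec_of_mem (mul_mem hg hh), ← map_add]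
  rfl

theorem sec_eq_zero {n : ℕ} {g : G} (h : g ∈ lcsT G (n + 1)) : sec n g = 0 := by
  rw [sec_of_mem (lcsT_antitone (Nat.le_succ n) h)]
  have : (QuotientGroup.mk ⟨g, lcsT_antitone (Nat.le_succ n) h⟩ : lcsT G n ⧸ secSub G n) = 1 :=
    (QuotientGroup.eq_one_iff _).mpr (Subgroup.mem_subgroupOf.mpr h)
  rw [this, ofMul_one, map_zero]

theorem mem_of_sec_eq_zero {n : ℕ} {g : G} (hg : g ∈ lcsT G n) (h : sec n g = 0) :
    g ∈ lcsT G (n + 1) := by
  rw [sec_of_mem hg] at h
  have h' := DirectSum.of_injective n (h.trans (map_zero _).symm)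
  exact Subgroup.mem_subgroupOf.mp ((QuotientGroup.eq_one_iff _).mp h')

theorem sec_one (n : ℕ) : sec n (1 : G) = 0 := sec_eq_zero (one_mem _)

theorem sec_inv {n : ℕ} {g : G} (hg : g ∈ lcsT G n) : sec n g⁻¹ = -sec n g := by
  rw [eq_neg_iff_add_eq_zero, ← sec_mul (inv_mem hg) hg, inv_mul_cancel, sec_one]

theorem sec_conj {n : ℕ} {g : G} (hg : g ∈ lcsT G n) (c : G) :
    sec n (c * g * c⁻¹) = sec n g := by
  have hc : c ∈ lcsT G 0 := by simp [lcsT]
  have h := comm_mem_lcsT hc hg
  rw [zero_add] at h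
  rw [show c * g * c⁻¹ = ⁅c, g⁆ * g by simp [commutatorElement_def, mul_assoc],
    sec_mul (lcsT_antitone (Nat.le_succ n) h) hg, sec_eq_zero h, zero_add]

@[elab_as_elim]
theorem induction_sec {P : Assoc G → Prop} (x : Assoc G) (h0 : P 0)
    (hadd : ∀ a b, P a → P b → P (a + b)) (hsec : ∀ n g, g ∈ lcsT G n → P (sec n g)) : P x := by
  induction x using DirectSum.induction_on with
  | zero => exact h0
  | add a b ha hb => exact hadd a b ha hb
  | of n y =>
    obtain ⟨⟨g, hg⟩, hy⟩ := QuotientGroup.mk_surjective (Additive.toMul y)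
    have := hsec n g hg
    rw [sec_of_mem hg, hy] at this
    exact this

theorem sec_comm_mul {i j : ℕ} {g h h' : G} (hg : g ∈ lcsT G i) (hh : h ∈ lcsT G j)
    (hh' : h' ∈ lcsT G j) :
    sec (i + j + 1) ⁅g, h * h'⁆ = sec (i + j + 1) ⁅g, h⁆ + sec (i + j + 1) ⁅g, h'⁆ := by
  have h1 := comm_mem_lcsT hg hh'
  have h2 : h * ⁅g, h'⁆ * h⁻¹ ∈ lcsT G (i + j + 1) :=
    (inferInstance : (lcsT G (i + j + 1)).Normal).conj_mem _ h1 h
  rw [show ⁅g, h * h'⁆ = ⁅g, h⁆ * (h * ⁅g, h'⁆ * h⁻¹) by simp only [commutatorElement_def]; group,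
    sec_mul (comm_mem_lcsT hg hh) h2, sec_conj h1]

theorem sec_mul_comm {i j : ℕ} {g g' h : G} (hg : g ∈ lcsT G i) (hg' : g' ∈ lcsT G i)
    (hh : h ∈ lcsT G j) :
    sec (i + j + 1) ⁅g * g', h⁆ = sec (i + j + 1) ⁅g, h⁆ + sec (i + j + 1) ⁅g', h⁆ := by
  have h1 := comm_mem_lcsT hg' hh
  have h2 : g * ⁅g', h⁆ * g⁻¹ ∈ lcsT G (i + j + 1) :=
    (inferInstance : (lcsT G (i + j + 1)).Normal).conj_mem _ h1 g
  rw [show ⁅g * g', h⁆ = (g * ⁅g', h⁆ * g⁻¹) * ⁅g, h⁆ by simp only [commutatorElement_def]; group,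
    sec_mul h2 (comm_mem_lcsT hg hh), sec_conj h1, add_comm]

/-- Commutation with a fixed element, on one section. -/
noncomputable def brHom (i : ℕ) (g : lcsT G i) (j : ℕ) : lcsT G j →* Multiplicative (Assoc G) where
  toFun h := Multiplicative.ofAdd (sec (i + j + 1) ⁅(g : G), (h : G)⁆)
  map_one' := by simp [sec_one]
  map_mul' h h' := by
    rw [Subgroup.coe_mul, sec_comm_mul g.2 h.2 h'.2, ofAdd_add]

theorem secSub_le_ker_brHom (i : ℕ) (g : lcsT G i) (j : ℕ) : secSub G j ≤ (brHom i g j).ker := by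
  intro h hh
  rw [MonoidHom.mem_ker]
  show Multiplicative.ofAdd (sec (i + j + 1) ⁅(g : G), (h : G)⁆) = 1
  rw [sec_eq_zero (lcsT_antitone (by omega) (comm_mem_lcsT g.2 (Subgroup.mem_subgroupOf.mp hh))),
    ofAdd_zero]

/-- Bracketing with a fixed element of one degree. -/
noncomputable def brInner (i : ℕ) (g : lcsT G i) : Assoc G →+ Assoc G :=
  DirectSum.toAddMonoid fun j =>
    MonoidHom.toAdditiveLeft (QuotientGroup.lift (secSub G j) (brHom i g j) (secSub_le_ker_brHom i g j))

theorem brInner_sec (i : ℕ) (g : lcsT G i) {j : ℕ} {h : G} (hh : h ∈ lcsT G j) :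
    brInner i g (sec j h) = sec (i + j + 1) ⁅(g : G), h⁆ := by
  rw [sec_of_mem hh, brInner, DirectSum.toAddMonoid_of]
  rfl

/-- Bracketing, as a homomorphism on one degree. -/
noncomputable def brOuter (i : ℕ) : lcsT G i →* Multiplicative (Assoc G →+ Assoc G) where
  toFun g := Multiplicative.ofAdd (brInner i g)
  map_one' := by
    refine congrArg Multiplicative.ofAdd (AddMonoidHom.ext fun x => ?_)
    refine induction_sec x (map_zero _) (fun a b ha hb => ?_) fun j h hh => ?_
    · rw [map_add, ha, hb]; simp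
    · rw [brInner_sec _ _ hh]; simp [sec_one]
  map_mul' g g' := by
    refine congrArg Multiplicative.ofAdd (AddMonoidHom.ext fun x => ?_)
    refine induction_sec x ?_ (fun a b ha hb => ?_) fun j h hh => ?_
    · simp
    · rw [map_add, ha, hb]
      simp only [AddMonoidHom.add_apply, map_add]
    · rw [brInner_sec _ _ hh, Subgroup.coe_mul, sec_mul_comm g.2 g'.2 hh, ← brInner_sec _ g hh,
        ← brInner_sec _ g' hh]
      rfl

theorem secSub_le_ker_brOuter (i : ℕ) : secSub G i ≤ (brOuter (G := G) i).ker := by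
  intro g hg
  rw [MonoidHom.mem_ker]
  refine congrArg Multiplicative.ofAdd (AddMonoidHom.ext fun x => ?_)
  refine induction_sec x (map_zero _) (fun a b ha hb => ?_) fun j h hh => ?_
  · rw [map_add, ha, hb]; simp
  · rw [brInner_sec _ _ hh, sec_eq_zero (lcsT_antitone (by omega)
      (comm_mem_lcsT (Subgroup.mem_subgroupOf.mp hg) hh))]
    rfl

/-- The bracket. -/
noncomputable def brk : Assoc G →+ Assoc G →+ Assoc G :=
  DirectSum.toAddMonoid fun i =>
    MonoidHom.toAdditiveLeft (QuotientGroup.lift (secSub G i) (brOuter i) (secSub_le_ker_brOuter i))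

theorem brk_sec {i j : ℕ} {g h : G} (hg : g ∈ lcsT G i) (hh : h ∈ lcsT G j) :
    brk (sec i g) (sec j h) = sec (i + j + 1) ⁅g, h⁆ := by
  rw [← brInner_sec i ⟨g, hg⟩ hh, sec_of_mem hg, brk, DirectSum.toAddMonoid_of]
  rfl

theorem brk_antisymm (x y : Assoc G) : brk x y = -brk y x := by
  refine induction_sec x ?_ (fun a b ha hb => ?_) fun i g hg => ?_
  · simp
  · rw [map_add, map_add, AddMonoidHom.add_apply, ha, hb, neg_add]
  refine induction_sec y ?_ (fun a b ha hb => ?_) fun j h hh => ?_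
  · simp
  · rw [map_add, map_add, AddMonoidHom.add_apply, ha, hb, neg_add]
  rw [brk_sec hg hh, brk_sec hh hg, show j + i + 1 = i + j + 1 by omega,
    ← commutatorElement_inv h g]
  have hm := comm_mem_lcsT hh hg
  rw [show j + i + 1 = i + j + 1 by omega] at hm
  exact sec_inv hm

theorem brk_self (x : Assoc G) : brk x x = 0 := by
  refine induction_sec x ?_ (fun a b ha hb => ?_) fun i g hg => ?_
  · simp
  · simp only [map_add, AddMonoidHom.add_apply, ha, hb, zero_add, add_zero]
    rw [brk_antisymm b a, neg_add_cancel]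
  · rw [brk_sec hg hg, commutatorElement_self, sec_one]

theorem hallWitt (x y z : G) :
    (y * ⁅x, ⁅y⁻¹, z⁆⁆ * y⁻¹) * (z * ⁅y, ⁅z⁻¹, x⁆⁆ * z⁻¹) * (x * ⁅z, ⁅x⁻¹, y⁆⁆ * x⁻¹) = 1 := by
  simp only [commutatorElement_def]
  group

theorem brk_cyclic (x y z : Assoc G) :
    brk x (brk y z) + brk y (brk z x) + brk z (brk x y) = 0 := by
  refine induction_sec x ?_ (fun a b ha hb => ?_) fun i a ha => ?_
  · simp
  · simp only [map_add, AddMonoidHom.add_apply] at ha hb ⊢
    rw [← add_zero (0 : Assoc G)]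
    nth_rewrite 1 [← ha]
    rw [← hb]
    abel
  refine induction_sec y ?_ (fun u v hu hv => ?_) fun j b hb => ?_
  · simp
  · simp only [map_add, AddMonoidHom.add_apply] at hu hv ⊢
    rw [← add_zero (0 : Assoc G)]
    nth_rewrite 1 [← hu]
    rw [← hv]
    abel
  refine induction_sec z ?_ (fun u v hu hv => ?_) fun l c hc => ?_
  · simp
  · simp only [map_add, AddMonoidHom.add_apply] at hu hv ⊢
    rw [← add_zero (0 : Assoc G)]
    nth_rewrite 1 [← hu]
    rw [← hv]
    abel
  have key : ∀ {u v w : ℕ} {p q r : G}, p ∈ lcsT G u → q ∈ lcsT G v → r ∈ lcsT G w →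
      sec (i + j + l + 2) (q * ⁅p, ⁅q⁻¹, r⁆⁆ * q⁻¹) = -brk (sec u p) (brk (sec v q) (sec w r)) ∨
        u + v + w ≠ i + j + l := by
    intro u v w p q r hp hq hr
    by_cases he : u + v + w = i + j + l
    · left
      have hqr := comm_mem_lcsT (inv_mem hq) hr
      have hm := comm_mem_lcsT hp hqr
      rw [show i + j + l + 2 = u + (v + w + 1) + 1 by omega, sec_conj hm, ← brk_sec hp hqr,
        ← brk_sec (inv_mem hq) hr, sec_inv hq, map_neg, AddMonoidHom.neg_apply, map_neg]
    · exact Or.inr he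
  have k1 := (key ha hb hc).resolve_right (by omega)
  have k2 := (key hb hc ha).resolve_right (by omega)
  have k3 := (key hc ha hb).resolve_right (by omega)
  have hmem : ∀ {u v w : ℕ} {p q r : G}, p ∈ lcsT G u → q ∈ lcsT G v → r ∈ lcsT G w →
      u + v + w = i + j + l → q * ⁅p, ⁅q⁻¹, r⁆⁆ * q⁻¹ ∈ lcsT G (i + j + l + 2) := by
    intro u v w p q r hp hq hr he
    have hm := comm_mem_lcsT hp (comm_mem_lcsT (inv_mem hq) hr)
    rw [show u + (v + w + 1) + 1 = i + j + l + 2 by omega] at hm
    exact (inferInstance : (lcsT G (i + j + l + 2)).Normal).conj_mem _ hm q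
  have h1 := hmem ha hb hc (by omega)
  have h2 := hmem hb hc ha (by omega)
  have h3 := hmem hc ha hb (by omega)
  have := congrArg (sec (i + j + l + 2)) (hallWitt a b c)
  rw [sec_mul (mul_mem h1 h2) h3, sec_mul h1 h2, k1, k2, k3, sec_one] at this
  rw [← neg_eq_zero, ← this]
  abel

noncomputable instance instAssocLieRing : LieRing (Assoc G) where
  bracket x y := brk x y
  add_lie x y z := by
    show brk (x + y) z = brk x z + brk y z
    rw [map_add, AddMonoidHom.add_apply]
  lie_add x y z := map_add (brk x) y z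
  lie_self x := brk_self x
  leibniz_lie x y z := by
    show brk x (brk y z) = brk (brk x y) z + brk y (brk x z)
    rw [brk_antisymm (brk x y) z, brk_antisymm x z, map_neg, ← sub_eq_zero]
    rw [← brk_cyclic x y z]
    abel

theorem lie_sec {i j : ℕ} {g h : G} (hg : g ∈ lcsT G i) (hh : h ∈ lcsT G j) :
    ⁅sec i g, sec j h⁆ = sec (i + j + 1) ⁅g, h⁆ := brk_sec hg hh

theorem card_nsmul_assoc [Finite G] (x : Assoc G) : Nat.card G • x = 0 := by
  refine induction_sec x (nsmul_zero _) (fun a b ha hb => by rw [nsmul_add, ha, hb, add_zero])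
    fun n g hg => ?_
  have h : ∀ k : ℕ, sec n (g ^ k) = k • sec n g := by
    intro k
    induction k with
    | zero => rw [pow_zero, sec_one, zero_nsmul]
    | succ k ih => rw [pow_succ, sec_mul (pow_mem hg k) hg, ih, succ_nsmul]
  rw [← h, pow_card_eq_one', sec_one]

theorem apply_mem_lcsT (α : MulAut G) {n : ℕ} {g : G} (hg : g ∈ lcsT G n) : α g ∈ lcsT G n :=
  Subgroup.characteristic_iff_le_comap.mp inferInstance α hg

/-- The action of an automorphism on one section. -/
noncomputable def endoHom (α : MulAut G) (n : ℕ) : lcsT G n →* Multiplicative (Assoc G) where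
  toFun g := Multiplicative.ofAdd (sec n (α g))
  map_one' := by simp [sec_one]
  map_mul' g g' := by
    rw [Subgroup.coe_mul, map_mul, sec_mul (apply_mem_lcsT α g.2) (apply_mem_lcsT α g'.2),
      ofAdd_add]

theorem secSub_le_ker_endoHom (α : MulAut G) (n : ℕ) : secSub G n ≤ (endoHom α n).ker := by
  intro g hg
  rw [MonoidHom.mem_ker]
  show Multiplicative.ofAdd (sec n (α g)) = 1
  rw [sec_eq_zero (apply_mem_lcsT α (Subgroup.mem_subgroupOf.mp hg)), ofAdd_zero]

/-- The endomorphism of the Lie ring induced by an automorphism. -/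
noncomputable def endo (α : MulAut G) : Assoc G →+ Assoc G :=
  DirectSum.toAddMonoid fun n =>
    MonoidHom.toAdditiveLeft (QuotientGroup.lift (secSub G n) (endoHom α n) (secSub_le_ker_endoHom α n))

theorem endo_sec (α : MulAut G) {n : ℕ} {g : G} (hg : g ∈ lcsT G n) :
    endo α (sec n g) = sec n (α g) := by
  rw [sec_of_mem hg, endo, DirectSum.toAddMonoid_of]
  rfl

theorem endo_lie (α : MulAut G) (x y : Assoc G) : endo α ⁅x, y⁆ = ⁅endo α x, endo α y⁆ := by
  refine induction_sec x ?_ (fun a b ha hb => ?_) fun i g hg => ?_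
  · simp
  · rw [add_lie, map_add, ha, hb, map_add, add_lie]
  refine induction_sec y ?_ (fun a b ha hb => ?_) fun j h hh => ?_
  · simp
  · rw [lie_add, map_add, ha, hb, map_add, lie_add]
  rw [lie_sec hg hh, endo_sec α (comm_mem_lcsT hg hh), endo_sec α hg, endo_sec α hh,
    lie_sec (apply_mem_lcsT α hg) (apply_mem_lcsT α hh), map_commutatorElement]

theorem endo_pow (α : MulAut G) (k : ℕ) : ∀ {n : ℕ} {g : G}, g ∈ lcsT G n →
    (⇑(endo α))^[k] (sec n g) = sec n ((α ^ k) g) := by
  induction k with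
  | zero => intro n g _; rfl
  | succ k ih =>
    intro n g hg
    rw [Function.iterate_succ_apply, endo_sec α hg, ih (apply_mem_lcsT α hg), pow_succ]
    rfl

theorem endo_iterate_add (α : MulAut G) (k : ℕ) (x y : Assoc G) :
    (⇑(endo α))^[k] (x + y) = (⇑(endo α))^[k] x + (⇑(endo α))^[k] y := by
  induction k generalizing x y with
  | zero => rfl
  | succ k ih => simp only [Function.iterate_succ_apply, map_add, ih]

theorem endo_iterate_self (α : MulAut G) {p : ℕ} (hp : α ^ p = 1) (x : Assoc G) :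
    (⇑(endo α))^[p] x = x := by
  refine induction_sec x ?_ (fun a b ha hb => by rw [endo_iterate_add, ha, hb]) fun n g hg => ?_
  · exact Function.iterate_fixed (map_zero _) p
  · rw [endo_pow α p hg, hp]; rfl

/-- A fixed-point-free automorphism of prime order has order prime to the group order. -/
theorem not_dvd_card_of_fpf [Finite G] {p : ℕ} [Fact p.Prime] (α : MulAut G) (hα : α ^ p = 1)
    (hfpf : ∀ g : G, α g = g → g = 1) : ¬ p ∣ Nat.card G := by
  classical
  haveI : Fintype G := Fintype.ofFinite G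
  intro hdvd
  let σ : Equiv.Perm G := α.toEquiv
  have hσp : σ ^ p ^ 1 = 1 := by
    rw [pow_one]
    have h : ∀ k : ℕ, ∀ g : G, (σ ^ k) g = (α ^ k) g := by
      intro k
      induction k with
      | zero => intro g; rfl
      | succ k ih => intro g; rw [pow_succ, pow_succ, Equiv.Perm.mul_apply, MulAut.mul_apply, ih]; rfl
    refine Equiv.ext fun g => ?_
    rw [h, hα]; rfl
  obtain ⟨b, hb, hb1⟩ := Equiv.Perm.exists_fixed_point_of_prime' (a := (1 : G))
    (by rw [← Nat.card_eq_fintype_card]; exact hdvd) hσp (map_one α)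
  exact hb1 (hfpf b hb)

/-- On each section an automorphism of prime order without fixed points has none either. -/
theorem mem_succ_of_fixed [Finite G] {p : ℕ} [Fact p.Prime] (α : MulAut G) (hα : α ^ p = 1)
    (hfpf : ∀ g : G, α g = g → g = 1) {n : ℕ} {y : G} (hy : y⁻¹ * α y ∈ lcsT G (n + 1)) :
    y ∈ lcsT G (n + 1) := by
  classical
  let X := {x : G // y⁻¹ * x ∈ lcsT G (n + 1)}
  haveI : Fintype X := Fintype.ofFinite _
  have hcl : ∀ x : G, y⁻¹ * x ∈ lcsT G (n + 1) → y⁻¹ * α x ∈ lcsT G (n + 1) := by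
    intro x hx
    have : y⁻¹ * α x = (y⁻¹ * α y) * α (y⁻¹ * x) := by rw [map_mul, map_inv]; group
    rw [this]
    exact mul_mem hy (apply_mem_lcsT α hx)
  let f : X → X := fun x => ⟨α x.1, hcl x.1 x.2⟩
  have hf : Function.Bijective f := Finite.injective_iff_bijective.mp fun a b h =>
    Subtype.ext (α.injective (congrArg Subtype.val h :))
  let σ : Equiv.Perm X := Equiv.ofBijective f hf
  have hσk : ∀ (k : ℕ) (x : X), ((σ ^ k) x).1 = (α ^ k) x.1 := by
    intro k
    induction k with
    | zero => intro x; rfl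
    | succ k ih => intro x; rw [pow_succ', Equiv.Perm.mul_apply, pow_succ', MulAut.mul_apply, ← ih]; rfl
  have hσp : σ ^ p ^ 1 = 1 := by
    refine Equiv.ext fun x => Subtype.ext ?_
    rw [pow_one, hσk, hα]; rfl
  have hnd : ¬ p ∣ Fintype.card X := by
    rw [← Nat.card_eq_fintype_card, Nat.card_congr ((Equiv.mulLeft y⁻¹).subtypeEquiv
      (p := fun x => y⁻¹ * x ∈ lcsT G (n + 1)) (q := fun z => z ∈ lcsT G (n + 1)) fun x => Iff.rfl)]
    exact fun h => not_dvd_card_of_fpf α hα hfpf (h.trans (lcsT G (n + 1)).card_subgroup_dvd_card)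
  obtain ⟨⟨x, hx⟩, hfix⟩ := Equiv.Perm.exists_fixed_point_of_prime hnd hσp
  have hx1 : x = 1 := hfpf x (congrArg Subtype.val hfix :)
  rw [hx1, mul_one] at hx
  exact inv_mem_iff.mp hx

/-- The norm of a fixed-point-free automorphism of prime order vanishes on the Lie ring. -/
theorem sum_endo_eq_zero [Finite G] {p : ℕ} [Fact p.Prime] (α : MulAut G) (hα : α ^ p = 1)
    (hfpf : ∀ g : G, α g = g → g = 1) (x : Assoc G) :
    ∑ i ∈ Finset.range p, (⇑(endo α))^[i] x = 0 := by
  refine induction_sec x ?_ (fun a b ha hb => ?_) fun n g hg => ?_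
  · exact Finset.sum_eq_zero fun i _ => Function.iterate_fixed (map_zero _) i
  · simp only [endo_iterate_add, Finset.sum_add_distrib, ha, hb, add_zero]
  have hpart : ∀ k : ℕ, ∃ y ∈ lcsT G n, ∑ i ∈ Finset.range k, (⇑(endo α))^[i] (sec n g) = sec n y := by
    intro k
    induction k with
    | zero => exact ⟨1, one_mem _, by simp [sec_one]⟩
    | succ k ih =>
      obtain ⟨y, hy, hsum⟩ := ih
      have hk : (α ^ k) g ∈ lcsT G n := apply_mem_lcsT _ hg
      exact ⟨y * (α ^ k) g, mul_mem hy hk, by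
        rw [Finset.sum_range_succ, hsum, endo_pow α k hg, sec_mul hy hk]⟩
  obtain ⟨y, hy, hsum⟩ := hpart p
  have hfix : endo α (sec n y) = sec n y := by
    rw [← hsum, map_sum]
    simp only [← Function.iterate_succ_apply' (⇑(endo α))]
    have h1 := Finset.sum_range_succ' (fun i => (⇑(endo α))^[i] (sec n g)) p
    rw [Finset.sum_range_succ, endo_iterate_self α hα, Function.iterate_zero_apply] at h1
    exact (add_right_cancel h1).symm
  rw [hsum]
  refine sec_eq_zero (mem_succ_of_fixed α hα hfpf (mem_of_sec_eq_zero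
    (mul_mem (inv_mem hy) (apply_mem_lcsT α hy)) ?_))
  rw [sec_mul (inv_mem hy) (apply_mem_lcsT α hy), sec_inv hy, ← endo_sec α hy, hfix, neg_add_cancel]

end CfsgLib.LieFPF
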