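import Mathlib

/-!
# Lie rings graded by `ZMod p` with trivial zero component

A grading is given as a family of additive subgroups; directness is not needed.

* `derived_eq_bot` (Kreknin): the derived length is at most `2 ^ (p - 1) - 1`;
* `gam_le_of_derived_le` (Higman, Kostrikin): derived length `s` gives nilpotency class at most
  `∑ i < s, (p - 1) ^ i`;
* `gam_two_eq_bot_of_three`: for `p = 3` the class is at most `2`.
-/

set_option autoImplicit false

namespace CfsgLib.LieFPF

variable {p : ℕ} {L : Type*} [LieRing L]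

/-- A family of additive subgroups indexed by `ZMod p`. -/
abbrev Fam (p : ℕ) (L : Type*) [LieRing L] := ZMod p → AddSubgroup L

/-- `C` is closed under the graded bracket and has trivial zero component. -/
structure IsGraded (C : Fam p L) : Prop where
  lie_mem : ∀ {i j : ZMod p} {x y : L}, x ∈ C i → y ∈ C j → ⁅x, y⁆ ∈ C (i + j)
  zero : C 0 = ⊥

/-- `I` is a graded ideal of `C`. -/
structure IsIdealIn (C I : Fam p L) : Prop where
  le : ∀ i, I i ≤ C i
  lie_mem : ∀ {i j : ZMod p} {x y : L}, x ∈ I i → y ∈ C j → ⁅x, y⁆ ∈ I (i + j)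

theorem IsIdealIn.lie_mem' {C I : Fam p L} (h : IsIdealIn C I) {i j : ZMod p} {x y : L}
    (hx : x ∈ C i) (hy : y ∈ I j) : ⁅x, y⁆ ∈ I (i + j) := by
  rw [← lie_skew, add_comm]
  exact neg_mem (h.lie_mem hy hx)

theorem IsIdealIn.isGraded {C I : Fam p L} (hC : IsGraded C) (h : IsIdealIn C I) : IsGraded I :=
  ⟨fun hx hy => h.lie_mem hx (h.le _ hy), le_bot_iff.mp (hC.zero ▸ h.le 0)⟩

theorem jacobi_right (x y z : L) : ⁅⁅x, y⁆, z⁆ = ⁅⁅x, z⁆, y⁆ + ⁅x, ⁅y, z⁆⁆ := by
  rw [leibniz_lie x y z, ← lie_skew ⁅x, z⁆ y]
  abel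

/-- The graded product of two families. -/
def bra (A B : Fam p L) : Fam p L := fun k =>
  AddSubgroup.closure {z | ∃ i j x y, i + j = k ∧ x ∈ A i ∧ y ∈ B j ∧ z = ⁅x, y⁆}

theorem lie_mem_bra {A B : Fam p L} {i j : ZMod p} {x y : L} (hx : x ∈ A i) (hy : y ∈ B j) :
    ⁅x, y⁆ ∈ bra A B (i + j) :=
  AddSubgroup.subset_closure ⟨i, j, x, y, rfl, hx, hy, rfl⟩

theorem bra_le {A B : Fam p L} {k : ZMod p} {X : AddSubgroup L}
    (h : ∀ i j x y, i + j = k → x ∈ A i → y ∈ B j → ⁅x, y⁆ ∈ X) : bra A B k ≤ X := by
  refine (AddSubgroup.closure_le _).mpr ?_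
  rintro _ ⟨i, j, x, y, hij, hx, hy, rfl⟩
  exact h i j x y hij hx hy

/-- The derived series of a family. -/
def der (C : Fam p L) : ℕ → Fam p L
  | 0 => C
  | s + 1 => bra (der C s) (der C s)

theorem der_zero (C : Fam p L) : der C 0 = C := rfl

theorem der_succ (C : Fam p L) (s : ℕ) : der C (s + 1) = bra (der C s) (der C s) := rfl

theorem der_add (C : Fam p L) (a : ℕ) : ∀ b, der C (a + b) = der (der C a) b
  | 0 => rfl
  | b + 1 => by rw [← add_assoc, der_succ, der_succ, der_add C a b]

theorem IsIdealIn.bra_self {C I : Fam p L} (hC : IsGraded C) (h : IsIdealIn C I) :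
    IsIdealIn C (bra I I) := by
  refine ⟨fun k => bra_le fun i j x y hij hx hy => hij ▸ hC.lie_mem (h.le i hx) (h.le j hy), ?_⟩
  intro k j z c hz hc
  have key : bra I I k ≤ AddSubgroup.comap
      (AddMonoidHom.mk' (fun w => ⁅w, c⁆) fun a b => add_lie a b c) (bra I I (k + j)) := by
    refine bra_le fun i i' x y hii hx hy => ?_
    show ⁅⁅x, y⁆, c⁆ ∈ bra I I (k + j)
    rw [jacobi_right, ← hii]
    refine add_mem ?_ ?_
    · rw [show i + i' + j = (i + j) + i' by abel]
      exact lie_mem_bra (h.lie_mem hx hc) hy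
    · rw [add_assoc]
      exact lie_mem_bra hx (h.lie_mem hy hc)
  exact key hz

theorem isIdealIn_der {C : Fam p L} (hC : IsGraded C) : ∀ s, IsIdealIn C (der C s)
  | 0 => ⟨fun _ => le_rfl, fun hx hy => hC.lie_mem hx hy⟩
  | s + 1 => (isIdealIn_der hC s).bra_self hC

/-- The graded subring generated by the components of index at least `k`. -/
inductive Gen (C : Fam p L) (k : ℕ) : ZMod p → L → Prop
  | base {i : ZMod p} {x : L} : k ≤ i.val → x ∈ C i → Gen C k i x
  | zero (i : ZMod p) : Gen C k i 0
  | add {i : ZMod p} {x y : L} : Gen C k i x → Gen C k i y → Gen C k i (x + y)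
  | neg {i : ZMod p} {x : L} : Gen C k i x → Gen C k i (-x)
  | lie {i j : ZMod p} {x y : L} : Gen C k i x → Gen C k j y → Gen C k (i + j) ⁅x, y⁆

/-- `Gen` as a family. -/
def genFam (C : Fam p L) (k : ℕ) : Fam p L := fun i =>
  { carrier := {x | Gen C k i x}
    zero_mem' := Gen.zero i
    add_mem' := Gen.add
    neg_mem' := Gen.neg }

theorem mem_genFam {C : Fam p L} {k : ℕ} {i : ZMod p} {x : L} :
    x ∈ genFam C k i ↔ Gen C k i x := Iff.rfl

theorem genFam_le {C X : Fam p L} {k : ℕ} (hbase : ∀ i : ZMod p, k ≤ i.val → C i ≤ X i)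
    (hlie : ∀ {i j : ZMod p} {x y : L}, x ∈ X i → y ∈ X j → ⁅x, y⁆ ∈ X (i + j)) (i : ZMod p) :
    genFam C k i ≤ X i := by
  intro x hx
  have hx' : Gen C k i x := hx
  clear hx
  induction hx' with
  | base hk hxC => exact hbase _ hk hxC
  | zero i => exact zero_mem _
  | add _ _ ihx ihy => exact add_mem ihx ihy
  | neg _ ih => exact neg_mem ih
  | lie _ _ ihx ihy => exact hlie ihx ihy

theorem gen_mem_le {C : Fam p L} (hC : IsGraded C) (k : ℕ) (i : ZMod p) :
    genFam C k i ≤ C i :=
  genFam_le (fun _ _ => le_rfl) (fun hx hy => hC.lie_mem hx hy) i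

/-- An ideal multiplies the generated subring into the products with its generators. -/
theorem lie_gen_mem {C M : Fam p L} (hC : IsGraded C) (hM : IsIdealIn C M) {k : ℕ} {i : ZMod p}
    {v : L} (hv : Gen C k i v) (X : Fam p L)
    (hX : ∀ (a l : ZMod p) (u c : L), k ≤ l.val → u ∈ M a → c ∈ C l → ⁅u, c⁆ ∈ X (a + l)) :
    ∀ (j : ZMod p) (u : L), u ∈ M j → ⁅u, v⁆ ∈ X (j + i) := by
  induction hv with
  | base hk hx => exact fun j u hu => hX j _ u _ hk hu hx
  | zero i => intro j u _; rw [lie_zero]; exact zero_mem _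
  | add _ _ ihx ihy => intro j u hu; rw [lie_add]; exact add_mem (ihx j u hu) (ihy j u hu)
  | neg _ ih => intro j u hu; rw [lie_neg]; exact neg_mem (ih j u hu)
  | @lie a b x y hx hy ihx ihy =>
    intro j u hu
    have hxC : x ∈ C a := gen_mem_le hC k a hx
    have hyC : y ∈ C b := gen_mem_le hC k b hy
    have h1 := ihy (j + a) ⁅u, x⁆ (hM.lie_mem hu hxC)
    have h2 := ihx (j + b) ⁅u, y⁆ (hM.lie_mem hu hyC)
    rw [show ⁅u, ⁅x, y⁆⁆ = ⁅⁅u, x⁆, y⁆ - ⁅⁅u, y⁆, x⁆ by rw [jacobi_right u x y]; abel]
    refine sub_mem ?_ ?_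
    · rwa [add_assoc] at h1
    · rwa [add_assoc, add_comm b a] at h2

/-- Kreknin's induction. -/
theorem der_le_genFam [Fact p.Prime] (k : ℕ) : k + 1 ≤ p → ∀ C : Fam p L, IsGraded C →
    ∀ i, der C (2 ^ k - 1) i ≤ genFam C (k + 1) i := by
  induction k with
  | zero =>
    intro _ C hC i x hx
    rcases eq_or_ne i 0 with rfl | hi
    · have hx0 : x ∈ C 0 := hx
      rw [hC.zero, AddSubgroup.mem_bot] at hx0
      rw [hx0]
      exact zero_mem _
    · refine Gen.base ?_ hx
      rcases Nat.eq_zero_or_pos i.val with h | h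
      · exact absurd ((ZMod.val_eq_zero i).mp h) hi
      · exact h
  | succ k ih =>
    intro hk C hC i
    set M := der C (2 ^ k - 1) with hMdef
    have hM : IsIdealIn C M := isIdealIn_der hC _
    have hMA : ∀ i, M i ≤ genFam C (k + 1) i := ih (by omega) C hC
    have hM' : IsIdealIn C (bra M M) := hM.bra_self hC
    have htarget : bra M M ((k + 1 : ℕ) : ZMod p) ≤ genFam C (k + 2) ((k + 1 : ℕ) : ZMod p) := by
      refine bra_le fun a b x y hab hx hy => ?_
      rw [← hab]
      suffices hX : ⁅x, y⁆ ∈ (fun t => if t = ((k + 1 : ℕ) : ZMod p) then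
          genFam C (k + 2) t else ⊤) (a + b) by simpa [hab] using hX
      refine lie_gen_mem hC hM (hMA b hy) (fun t => if t = ((k + 1 : ℕ) : ZMod p) then
        genFam C (k + 2) t else ⊤) (fun a' l u c hl hu hc => ?_) a x hx
      split_ifs with ht
      · rcases eq_or_ne l ((k + 1 : ℕ) : ZMod p) with hl' | hl'
        · have ha : a' = 0 := by
            rw [hl'] at ht
            exact add_eq_right.mp ht
          have hu0 := hM.le a' hu
          rw [ha, hC.zero, AddSubgroup.mem_bot] at hu0
          rw [hu0, zero_lie]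
          exact zero_mem _
        · have hvk : ((k + 1 : ℕ) : ZMod p).val = k + 1 := ZMod.val_cast_of_lt (by omega)
          have hl2 : k + 2 ≤ l.val := by
            rcases Nat.lt_or_ge (k + 1) l.val with h | h
            · omega
            · exact absurd (ZMod.val_injective p (by rw [hvk]; omega)) hl'
          refine Gen.lie (Gen.base ?_ (hM.le a' hu)) (Gen.base hl2 hc)
          have hlp : l.val < p := ZMod.val_lt l
          have hsum := congrArg ZMod.val ht
          rw [hvk, ZMod.val_add] at hsum
          rcases Nat.lt_or_ge (a'.val + l.val) p with h | h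
          · rw [Nat.mod_eq_of_lt h] at hsum; omega
          · rw [Nat.mod_eq_sub_mod h, Nat.mod_eq_of_lt (by have := ZMod.val_lt a'; omega)] at hsum
            omega
      · trivial
    have hcomp : ∀ j : ZMod p, k + 1 ≤ j.val → bra M M j ≤ genFam C (k + 2) j := by
      intro j hj
      rcases Nat.lt_or_ge (k + 1) j.val with h | h
      · exact fun x hx => Gen.base h (hM'.le j hx)
      · have hjk : j = ((k + 1 : ℕ) : ZMod p) := by
          refine ZMod.val_injective p ?_
          rw [ZMod.val_cast_of_lt (by omega)]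
          omega
        rw [hjk]
        exact htarget
    have hsplit : 2 ^ (k + 1) - 1 = (2 ^ k - 1 + 1) + (2 ^ k - 1) := by
      have := Nat.one_le_two_pow (n := k)
      rw [pow_succ]
      omega
    rw [hsplit, der_add, der_succ, ← hMdef]
    exact (ih (by omega) _ (hM'.isGraded hC) i).trans (genFam_le hcomp (fun hx hy => Gen.lie hx hy) i)

/-- **Kreknin**: the derived length of a graded family is at most `2 ^ (p - 1) - 1`. -/
theorem derived_eq_bot [Fact p.Prime] {C : Fam p L} (hC : IsGraded C) (i : ZMod p) :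
    der C (2 ^ (p - 1) - 1) i = ⊥ := by
  have hp := (Fact.out : p.Prime).one_lt
  refine le_bot_iff.mp ((der_le_genFam (p - 1) (by omega) C hC i).trans ?_)
  refine genFam_le (X := fun _ => ⊥) (fun j hj => ?_) (fun hx hy => ?_) i
  · exact absurd (ZMod.val_lt j) (by omega)
  · rw [AddSubgroup.mem_bot] at hx hy ⊢
    rw [hx, zero_lie]

/-- The lower central series of a family (`gam C w` has weight `w + 1`). -/
def gam (C : Fam p L) : ℕ → Fam p L
  | 0 => C
  | w + 1 => bra (gam C w) C

theorem gam_succ (C : Fam p L) (w : ℕ) : gam C (w + 1) = bra (gam C w) C := rfl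

theorem gam_le {C : Fam p L} (hC : IsGraded C) : ∀ (w : ℕ) (i : ZMod p), gam C w i ≤ C i
  | 0, _ => le_rfl
  | w + 1, _ => bra_le fun _ _ _ _ hij hx hy => hij ▸ hC.lie_mem (gam_le hC w _ hx) hy

theorem gam_succ_le {C : Fam p L} (hC : IsGraded C) :
    ∀ (w : ℕ) (i : ZMod p), gam C (w + 1) i ≤ gam C w i
  | 0, i => gam_le hC 1 i
  | w + 1, _ => bra_le fun _ _ _ _ hij hx hy => hij ▸ lie_mem_bra (gam_succ_le hC w _ hx) hy

theorem gam_antitone {C : Fam p L} (hC : IsGraded C) {v w : ℕ} (h : v ≤ w) (i : ZMod p) :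
    gam C w i ≤ gam C v i := by
  induction h with
  | refl => exact le_rfl
  | step _ ih => exact (gam_succ_le hC _ i).trans ih

theorem gam_lie_mem {C : Fam p L} (v : ℕ) : ∀ (u : ℕ) {i j : ZMod p} {x y : L},
    x ∈ gam C u i → y ∈ gam C v j → ⁅x, y⁆ ∈ gam C (u + v + 1) (i + j) := by
  induction v with
  | zero => intro u i j x y hx hy; exact lie_mem_bra hx hy
  | succ v ihv =>
    intro u i j x y hx hy
    have key : gam C (v + 1) j ≤ AddSubgroup.comap
        (AddMonoidHom.mk' (fun w => ⁅x, w⁆) fun a b => lie_add x a b)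
        (gam C (u + (v + 1) + 1) (i + j)) := by
      refine bra_le fun a b z c hab hz hc => ?_
      show ⁅x, ⁅z, c⁆⁆ ∈ gam C (u + (v + 1) + 1) (i + j)
      have h1 : ⁅⁅x, z⁆, c⁆ ∈ gam C (u + v + 1 + 1) (i + a + b) :=
        lie_mem_bra (ihv u hx hz) hc
      have h2 : ⁅⁅x, c⁆, z⁆ ∈ gam C (u + 1 + v + 1) (i + b + a) :=
        ihv (u + 1) (lie_mem_bra hx hc) hz
      rw [show ⁅x, ⁅z, c⁆⁆ = ⁅⁅x, z⁆, c⁆ - ⁅⁅x, c⁆, z⁆ by rw [jacobi_right x z c]; abel, ← hab]
      refine sub_mem ?_ ?_
      · rw [show u + (v + 1) + 1 = u + v + 1 + 1 by omega, show i + (a + b) = i + a + b by abel]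
        exact h1
      · rw [show u + (v + 1) + 1 = u + 1 + v + 1 by omega, show i + (a + b) = i + b + a by abel]
        exact h2
    exact key hy

/-- The weight of a word of homogeneous elements. -/
def wt (l : List (ℕ × ZMod p × L)) : ℕ := (l.map fun e => e.1 + 1).sum

/-- The degree of a word. -/
def deg (l : List (ℕ × ZMod p × L)) : ZMod p := (l.map fun e => e.2.1).sum

/-- Right multiplication by the letters of a word, one after another. -/
def act (a : L) (l : List (ℕ × ZMod p × L)) : L := l.foldl (fun b e => ⁅b, e.2.2⁆) a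

theorem act_nil (a : L) : act (p := p) a [] = a := rfl

theorem act_cons (a : L) (e : ℕ × ZMod p × L) (l : List (ℕ × ZMod p × L)) :
    act a (e :: l) = act ⁅a, e.2.2⁆ l := rfl

theorem act_append (a : L) (l m : List (ℕ × ZMod p × L)) : act a (l ++ m) = act (act a l) m := by
  unfold act
  rw [List.foldl_append]

theorem act_add (a b : L) (l : List (ℕ × ZMod p × L)) : act (a + b) l = act a l + act b l := by
  induction l generalizing a b with
  | nil => rfl
  | cons e l ih => rw [act_cons, act_cons, act_cons, add_lie, ih]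

theorem act_zero (l : List (ℕ × ZMod p × L)) : act (0 : L) l = 0 := by
  induction l with
  | nil => rfl
  | cons e l ih => rw [act_cons, zero_lie, ih]

theorem act_neg (a : L) (l : List (ℕ × ZMod p × L)) : act (-a) l = -act a l := by
  induction l generalizing a with
  | nil => rfl
  | cons e l ih => rw [act_cons, act_cons, neg_lie, ih]

theorem wt_cons (e : ℕ × ZMod p × L) (l : List (ℕ × ZMod p × L)) :
    wt (e :: l) = e.1 + 1 + wt l := by simp [wt]

theorem wt_append (l m : List (ℕ × ZMod p × L)) : wt (l ++ m) = wt l + wt m := by simp [wt]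

theorem deg_cons (e : ℕ × ZMod p × L) (l : List (ℕ × ZMod p × L)) :
    deg (e :: l) = e.2.1 + deg l := by simp [deg]

theorem deg_append (l m : List (ℕ × ZMod p × L)) : deg (l ++ m) = deg l + deg m := by simp [deg]

theorem act_mem_of_ideal {C J : Fam p L} (hC : IsGraded C) (hJ : IsIdealIn C J) :
    ∀ (l : List (ℕ × ZMod p × L)), (∀ e ∈ l, e.2.2 ∈ gam C e.1 e.2.1) →
      ∀ (j : ZMod p) (a : L), a ∈ J j → act a l ∈ J (j + deg l)
  | [], _, j, a, ha => by simpa [act_nil, deg] using ha
  | e :: l, hl, j, a, ha => by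
    rw [act_cons, deg_cons, ← add_assoc]
    exact act_mem_of_ideal hC hJ l (fun x hx => hl x (List.mem_cons_of_mem _ hx)) _ _
      (hJ.lie_mem ha (gam_le hC _ _ (hl e List.mem_cons_self)))

/-- The sums of sublists of `p - 1` non-zero residues cover everything. -/
theorem exists_sublist_sum [Fact p.Prime] {α : Type*} (f : α → ZMod p) (l : List α)
    (hl : ∀ e ∈ l, f e ≠ 0) (hlen : p - 1 ≤ l.length) (t : ZMod p) :
    ∃ s : List α, List.Sublist s l ∧ (s.map f).sum = t := by
  classical
  have key : ∀ l : List α, (∀ e ∈ l, f e ≠ 0) → ∃ S : Finset (ZMod p),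
      (∀ t ∈ S, ∃ s : List α, List.Sublist s l ∧ (s.map f).sum = t) ∧
      min p (l.length + 1) ≤ S.card := by
    intro l
    induction l with
    | nil =>
      exact fun _ => ⟨{0}, fun t ht => ⟨[], List.Sublist.refl _, by simp_all⟩, by simp⟩
    | cons x l ih =>
      intro hl
      obtain ⟨S, hS, hcard⟩ := ih fun e he => hl e (List.mem_cons_of_mem _ he)
      refine ⟨S ∪ S.image (f x + ·), ?_, ?_⟩
      · intro t ht
        rcases Finset.mem_union.mp ht with ht | ht
        · obtain ⟨s, hs, hst⟩ := hS t ht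
          exact ⟨s, hs.cons x, hst⟩
        · obtain ⟨t', ht', rfl⟩ := Finset.mem_image.mp ht
          obtain ⟨s, hs, hst⟩ := hS t' ht'
          exact ⟨x :: s, hs.cons₂ x, by simp [hst]⟩
      · by_cases hsub : S.image (f x + ·) ⊆ S
        · have hne : S.Nonempty := by
            rw [← Finset.card_pos]
            have := (Fact.out : p.Prime).pos
            omega
          obtain ⟨a, ha⟩ := hne
          have hall : ∀ n : ℕ, a + (n : ZMod p) * f x ∈ S := by
            intro n
            induction n with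
            | zero => simpa using ha
            | succ n ihn =>
              have := hsub (Finset.mem_image_of_mem (f x + ·) ihn)
              convert this using 1
              push_cast
              ring
          have huniv : S = Finset.univ := Finset.eq_univ_of_forall fun b => by
            have := hall ((b - a) / f x).val
            rwa [ZMod.natCast_zmod_val, div_mul_cancel₀ _ (hl x List.mem_cons_self),
              add_sub_cancel] at this
          have hu : (S ∪ S.image (f x + ·)).card = p := by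
            rw [huniv, Finset.union_eq_left.mpr (Finset.subset_univ _), Finset.card_univ, ZMod.card]
          omega
        · have hlt : S.card < (S ∪ S.image (f x + ·)).card :=
            Finset.card_lt_card (Finset.ssubset_iff_subset_ne.mpr
              ⟨Finset.subset_union_left, fun he => hsub fun y hy => by
              have := Finset.mem_union_right S hy
              rwa [← he] at this⟩)
          simp only [List.length_cons]
          omega
  obtain ⟨S, hS, hcard⟩ := key l hl
  have hSu : S = Finset.univ := by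
    refine Finset.eq_univ_of_card S (le_antisymm (Finset.card_le_univ S) ?_)
    rw [ZMod.card]
    have := (Fact.out : p.Prime).pos
    omega
  exact hS t (hSu ▸ Finset.mem_univ t)

/-- The word argument: an abelian (modulo `I`) ideal containing weight `c + 1` is killed modulo
`I` by words of weight more than `(p - 2) * c`. -/
theorem act_mem_of_weight [Fact p.Prime] {C I J : Fam p L} {c : ℕ} (hC : IsGraded C)
    (hI : IsIdealIn C I) (hJ : IsIdealIn C J) (hc : ∀ i, gam C c i ≤ J i)
    (hJJ : ∀ {i j : ZMod p} {x y : L}, x ∈ J i → y ∈ J j → ⁅x, y⁆ ∈ I (i + j)) (n : ℕ) :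
    ∀ (l : List (ℕ × ZMod p × L)), l.length = n → (∀ e ∈ l, e.2.2 ∈ gam C e.1 e.2.1) →
      (p - 2) * c < wt l → ∀ (j : ZMod p) (a : L), a ∈ J j → act a l ∈ I (j + deg l) := by
  induction n using Nat.strong_induction_on with
  | _ n ih =>
    intro l hlen hl hwt j a ha
    by_cases hbig : ∃ e ∈ l, c ≤ e.1
    · obtain ⟨e, he, hce⟩ := hbig
      obtain ⟨pre, suf, rfl⟩ := List.append_of_mem he
      rw [act_append, act_cons, deg_append, deg_cons, ← add_assoc, ← add_assoc]
      refine act_mem_of_ideal hC hI suf (fun x hx => hl x (by simp [hx])) _ _ ?_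
      exact hJJ (act_mem_of_ideal hC hJ pre (fun x hx => hl x (by simp [hx])) _ _ ha)
        (hc _ (gam_antitone hC hce _ (hl e he)))
    push Not at hbig
    by_cases hzero : ∃ e ∈ l, e.2.1 = 0
    · obtain ⟨e, he, he0⟩ := hzero
      obtain ⟨pre, suf, rfl⟩ := List.append_of_mem he
      have h0 : e.2.2 = 0 := by
        have h := gam_le hC _ _ (hl e he)
        rwa [he0, hC.zero, AddSubgroup.mem_bot] at h
      rw [act_append, act_cons, h0, lie_zero, act_zero]
      exact zero_mem _
    push Not at hzero
    -- reordering changes the value by shorter words of the same weight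
    have hperm : ∀ {l₁ l₂ : List (ℕ × ZMod p × L)}, l₁.Perm l₂ →
        ∀ pre : List (ℕ × ZMod p × L), (pre ++ l₁).length = n →
          (∀ e ∈ pre ++ l₁, e.2.2 ∈ gam C e.1 e.2.1) → (p - 2) * c < wt (pre ++ l₁) →
            act a (pre ++ l₂) ∈ I (j + deg (pre ++ l₁)) →
              act a (pre ++ l₁) ∈ I (j + deg (pre ++ l₁)) := by
      intro l₁ l₂ h
      induction h with
      | nil => exact fun _ _ _ _ h => h
      | cons x h' ih' =>
        intro pre h1 h2 h3 h4
        have := ih' (pre ++ [x]) (by simpa using h1) (by simpa using h2) (by simpa using h3)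
          (by simpa using h4)
        simpa using this
      | swap x y l₀ =>
        intro pre h1 h2 h3 h4
        have hy := h2 y (by simp)
        have hx := h2 x (by simp)
        let m : ℕ × ZMod p × L := (y.1 + x.1 + 1, y.2.1 + x.2.1, ⁅y.2.2, x.2.2⁆)
        have hm : act a (pre ++ m :: l₀) ∈ I (j + deg (pre ++ y :: x :: l₀)) := by
          have hd : deg (pre ++ y :: x :: l₀) = deg (pre ++ m :: l₀) := by
            simp only [deg_append, deg_cons, m]
            abel
          rw [hd]
          refine ih (pre ++ m :: l₀).length (by simp at h1 ⊢; omega) _ rfl ?_ ?_ j a ha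
          · intro e he
            rcases List.mem_append.mp he with he | he
            · exact h2 e (by simp [he])
            · rcases List.mem_cons.mp he with rfl | he
              · exact gam_lie_mem _ _ hy hx
              · exact h2 e (by simp [he])
          · simp only [wt_append, wt_cons, m] at h3 ⊢
            omega
        have heq : act a (pre ++ y :: x :: l₀) = act a (pre ++ x :: y :: l₀) + act a (pre ++ m :: l₀) := by
          rw [act_append, act_append, act_append, act_cons, act_cons, act_cons, act_cons, act_cons,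
            ← act_add]
          exact congrArg (act · l₀) (jacobi_right _ _ _)
        rw [heq]
        exact add_mem h4 hm
      | trans h12 h23 ih12 ih23 =>
        intro pre h1 h2 h3 h4
        have hP := (List.perm_append_left_iff pre).mpr h12
        have hd := (hP.map (fun e : ℕ × ZMod p × L => e.2.1)).sum_eq
        refine ih12 pre h1 h2 h3 ?_
        rw [show deg (pre ++ _) = _ from hd]
        refine ih23 pre (hP.length_eq ▸ h1) (fun e he => h2 e (hP.mem_iff.mpr he)) ?_ ?_
        · rwa [show wt (pre ++ _) = _ from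
            ((hP.map (fun e : ℕ × ZMod p × L => e.1 + 1)).sum_eq)] at h3
        · rwa [show deg (pre ++ _) = _ from hd] at h4
    have hlong : p - 1 ≤ l.length := by
      have hle : wt l ≤ l.length * c := by
        clear hperm hwt hl hlen
        induction l with
        | nil => simp [wt]
        | cons e l ih' =>
          have h1 := hbig e List.mem_cons_self
          have h2 := ih' (fun x hx => hbig x (List.mem_cons_of_mem _ hx))
            (fun x hx => hzero x (List.mem_cons_of_mem _ hx))
          rw [wt_cons, List.length_cons, Nat.succ_mul]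
          omega
      by_contra hcon
      have : l.length * c ≤ (p - 2) * c := Nat.mul_le_mul_right c (by omega)
      omega
    obtain ⟨s, hs, hsum⟩ := exists_sublist_sum (fun e => e.2.1) l hzero hlong (-j)
    obtain ⟨r, hr⟩ := hs.exists_perm_append
    refine hperm hr [] (by simpa using hlen) (by simpa using hl) (by simpa using hwt) ?_
    rw [List.nil_append, List.nil_append, act_append]
    have h0 : act a s = 0 := by
      have h := hJ.le _ (act_mem_of_ideal hC hJ s
        (fun x hx => hl x (hs.subset hx)) j a ha)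
      rw [show deg s = -j from hsum, add_neg_cancel, hC.zero, AddSubgroup.mem_bot] at h
      exact h
    rw [h0, act_zero]
    exact zero_mem _

/-- **Higman, Kostrikin**: derived length `s` bounds the nilpotency class. -/
theorem gam_le_of_derived_le [Fact p.Prime] {C : Fam p L} (hC : IsGraded C) (s : ℕ) :
    ∀ I : Fam p L, IsIdealIn C I → (∀ i, der C s i ≤ I i) →
      ∀ i, gam C (∑ t ∈ Finset.range s, (p - 1) ^ t) i ≤ I i := by
  induction s with
  | zero => intro I _ h i; simpa [gam, der] using h i
  | succ s ih =>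
    intro I hI h i
    have hD := isIdealIn_der hC s
    let J : Fam p L := fun i => I i ⊔ der C s i
    have hJ : IsIdealIn C J := by
      refine ⟨fun i => sup_le (hI.le i) (hD.le i), fun {a b x y} hx hy => ?_⟩
      obtain ⟨u, hu, v, hv, rfl⟩ := AddSubgroup.mem_sup.mp hx
      rw [add_lie]
      exact add_mem (le_sup_left (a := I (a + b)) (hI.lie_mem hu hy))
        (le_sup_right (b := der C s (a + b)) (hD.lie_mem hv hy))
    have hJJ : ∀ {a b : ZMod p} {x y : L}, x ∈ J a → y ∈ J b → ⁅x, y⁆ ∈ I (a + b) := by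
      intro a b x y hx hy
      obtain ⟨u, hu, v, hv, rfl⟩ := AddSubgroup.mem_sup.mp hx
      obtain ⟨u', hu', v', hv', rfl⟩ := AddSubgroup.mem_sup.mp hy
      rw [add_lie, lie_add v]
      refine add_mem (hI.lie_mem hu (hJ.le b hy)) (add_mem (hI.lie_mem' (hD.le a hv) hu') ?_)
      exact h (a + b) (lie_mem_bra hv hv')
    set c := ∑ t ∈ Finset.range s, (p - 1) ^ t with hcdef
    have hcJ : ∀ i, gam C c i ≤ J i := ih J hJ fun i => le_sup_right
    have key : ∀ (t : ℕ) (l : List (ℕ × ZMod p × L)), (∀ e ∈ l, e.2.2 ∈ gam C e.1 e.2.1) →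
        (p - 2) * c < wt l + t → ∀ (j : ZMod p) (x : L), x ∈ gam C (c + t) j →
          act x l ∈ I (j + deg l) := by
      intro t
      induction t with
      | zero =>
        intro l hl hw j x hx
        exact act_mem_of_weight hC hI hJ hcJ hJJ _ l rfl hl (by simpa using hw) j x (hcJ j hx)
      | succ t iht =>
        intro l hl hw j x hx
        have key2 : gam C (c + (t + 1)) j ≤ AddSubgroup.comap
            (AddMonoidHom.mk' (fun w => act w l) fun a b => act_add a b l) (I (j + deg l)) := by
          refine bra_le fun a b u y hab hu hy => ?_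
          show act ⁅u, y⁆ l ∈ I (j + deg l)
          have h' := iht ((0, b, y) :: l) ?_ ?_ a u hu
          · rw [act_cons, deg_cons, ← add_assoc, hab] at h'
            exact h'
          · intro e he
            rcases List.mem_cons.mp he with rfl | he
            · exact hy
            · exact hl e he
          · rw [wt_cons]; omega
        exact key2 hx
    have hidx : ∑ t ∈ Finset.range (s + 1), (p - 1) ^ t = c + ((p - 2) * c + 1) := by
      rw [geom_sum_succ, ← hcdef]
      have := (Fact.out : p.Prime).two_le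
      obtain ⟨q, rfl⟩ : ∃ q, p = q + 2 := ⟨p - 2, by omega⟩
      simp only [Nat.add_sub_cancel, show q + 2 - 1 = q + 1 by omega]
      ring
    intro x hx
    rw [hidx] at hx
    simpa [act_nil, deg] using key ((p - 2) * c + 1) [] (by simp) (by simp [wt]) i x hx

/-- The class is bounded by the Kreknin–Kostrikin number. -/
theorem gam_eq_bot [Fact p.Prime] {C : Fam p L} (hC : IsGraded C) (i : ZMod p) :
    gam C (∑ t ∈ Finset.range (2 ^ (p - 1) - 1), (p - 1) ^ t) i = ⊥ := by
  refine le_bot_iff.mp (gam_le_of_derived_le hC _ (fun _ => ⊥) ⟨fun _ => bot_le, ?_⟩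
    (fun j => (derived_eq_bot hC j).le) i)
  intro a b x y hx _
  rw [AddSubgroup.mem_bot] at hx ⊢
  rw [hx, zero_lie]

theorem zmod_three_cases : ∀ a b c : ZMod 3,
    a = 0 ∨ b = 0 ∨ c = 0 ∨ a + b = 0 ∨ a + b + c = 0 ∨ (a + c = 0 ∧ b + c = 0) := by
  decide

/-- For `p = 3` the class is at most two. -/
theorem gam_two_eq_bot_of_three (h3 : p = 3) {C : Fam p L} (hC : IsGraded C) (i : ZMod p) :
    gam C 2 i = ⊥ := by
  subst h3
  refine le_bot_iff.mp (bra_le fun a b z c _ hz hc => ?_)
  have key : gam C 1 a ≤ AddSubgroup.comap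
      (AddMonoidHom.mk' (fun w => ⁅w, c⁆) fun u v => add_lie u v c) ⊥ := by
    refine bra_le fun a₁ a₂ x y _ hx hy => ?_
    show ⁅⁅x, y⁆, c⁆ ∈ (⊥ : AddSubgroup L)
    have h0 : ∀ {u v : ZMod 3} {x y : L}, x ∈ C u → y ∈ C v → u + v = 0 → ⁅x, y⁆ = 0 := by
      intro u v x y hx hy huv
      have := hC.lie_mem hx hy
      rwa [huv, hC.zero, AddSubgroup.mem_bot] at this
    have hz0 : ∀ {u : ZMod 3} {x : L}, x ∈ C u → u = 0 → x = 0 := by
      intro u x hx hu
      rwa [hu, hC.zero, AddSubgroup.mem_bot] at hx
    rw [AddSubgroup.mem_bot]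
    rcases zmod_three_cases a₁ a₂ b with h | h | h | h | h | ⟨h, h'⟩
    · rw [hz0 hx h, zero_lie, zero_lie]
    · rw [hz0 hy h, lie_zero, zero_lie]
    · rw [hz0 hc h, lie_zero]
    · rw [h0 hx hy h, zero_lie]
    · exact h0 (hC.lie_mem hx hy) hc h
    · rw [jacobi_right, h0 hx hc h, h0 hy hc h', zero_lie, lie_zero, add_zero]
  exact key hz

end CfsgLib.LieFPF
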