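import Mathlib
import Cfsg.Agent.LieFPF.Graded
import Cfsg.Agent.LieFPF.AssocLie

/-!
# The class of a nilpotent group with a fixed-point-free automorphism of prime order

The Lie ring of the lower central series is extended by a primitive `p`-th root of unity and split
into eigen-components; the graded bounds then give the class.
-/

set_option autoImplicit false

open scoped TensorProduct DirectSum commutatorElement
open Polynomial

namespace CfsgLib.LieFPF

/-- The ring of integers of the `p`-th cyclotomic field, as `ℤ[X] / (Φ_p)`. -/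
abbrev Cyc (p : ℕ) := AdjoinRoot (cyclotomic p ℤ)

variable {p : ℕ} [hp : Fact p.Prime]

/-- The powers of the root of unity, indexed by residues. -/
noncomputable def rootPow (i : ZMod p) : Cyc p := AdjoinRoot.root (cyclotomic p ℤ) ^ i.val

theorem sum_range_root_pow : ∑ i ∈ Finset.range p, AdjoinRoot.root (cyclotomic p ℤ) ^ i = 0 := by
  have h := AdjoinRoot.eval₂_root (cyclotomic p ℤ)
  have e : eval₂ (AdjoinRoot.of (cyclotomic p ℤ)) (AdjoinRoot.root (cyclotomic p ℤ))
      (∑ i ∈ Finset.range p, (X : ℤ[X]) ^ i) = 0 := by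
    rw [← cyclotomic_prime ℤ p]
    exact h
  simpa [eval₂_finsetSum] using e

theorem root_pow_prime : AdjoinRoot.root (cyclotomic p ℤ) ^ p = 1 := by
  have h := geom_sum_mul (AdjoinRoot.root (cyclotomic p ℤ)) p
  rw [sum_range_root_pow, zero_mul] at h
  exact (sub_eq_zero.mp h.symm)

theorem rootPow_add (i j : ZMod p) : rootPow (i + j) = rootPow i * rootPow j := by
  unfold rootPow
  rw [ZMod.val_add, ← pow_add]
  exact (pow_eq_pow_mod _ root_pow_prime).symm

theorem rootPow_zero : rootPow (0 : ZMod p) = 1 := by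
  simp [rootPow]

theorem sum_rootPow : ∑ i : ZMod p, rootPow i = 0 := by
  rw [← sum_range_root_pow (p := p)]
  refine Finset.sum_bij' (fun i _ => i.val) (fun k _ => (k : ZMod p)) ?_ ?_ ?_ ?_ ?_
  · intro i _; exact Finset.mem_range.mpr i.val_lt
  · intro k _; exact Finset.mem_univ _
  · intro i _; exact ZMod.natCast_zmod_val i
  · intro k hk; exact ZMod.val_cast_of_lt (Finset.mem_range.mp hk)
  · intro i _; rfl

theorem sum_rootPow_mul {a : ZMod p} (ha : a ≠ 0) : ∑ i : ZMod p, rootPow (a * i) = 0 := by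
  rw [← sum_rootPow (p := p)]
  exact Equiv.sum_comp (Equiv.mulLeft₀ a ha) rootPow

theorem natDegree_cyc_pos : 0 < (cyclotomic p ℤ).natDegree := by
  rw [natDegree_cyclotomic]
  exact Nat.totient_pos.mpr hp.out.pos

theorem tmul_one_injective {L : Type*} [AddCommGroup L] {x : L}
    (h : (1 : Cyc p) ⊗ₜ[ℤ] x = 0) : x = 0 := by
  let B := AdjoinRoot.powerBasis' (cyclotomic.monic p ℤ)
  let k : Fin B.dim := ⟨0, natDegree_cyc_pos⟩
  let f : Cyc p →ₗ[ℤ] ℤ := B.basis.coord k
  have hf : f 1 = 1 := by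
    have h1 : (1 : Cyc p) = B.basis k := by
      rw [B.basis_eq_pow]
      simp [k]
    show B.basis.coord k 1 = 1
    rw [h1, Module.Basis.coord_apply, Module.Basis.repr_self, Finsupp.single_eq_same]
  have := congrArg ((TensorProduct.lid ℤ L).toLinearMap ∘ₗ LinearMap.rTensor L f) h
  simpa [hf] using this

section Group

variable {G : Type*} [Group G]

/-- The extended endomorphism. -/
noncomputable def extEndo (α : MulAut G) :
    Cyc p ⊗[ℤ] Assoc G →ₗ[Cyc p] Cyc p ⊗[ℤ] Assoc G :=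
  (endo α).toIntLinearMap.baseChange (Cyc p)

theorem extEndo_tmul (α : MulAut G) (r : Cyc p) (x : Assoc G) :
    extEndo α (r ⊗ₜ[ℤ] x) = r ⊗ₜ[ℤ] endo α x := rfl

theorem ext_add_lie (x y z : Cyc p ⊗[ℤ] Assoc G) : ⁅x + y, z⁆ = ⁅x, z⁆ + ⁅y, z⁆ := add_lie x y z

theorem ext_lie_add (x y z : Cyc p ⊗[ℤ] Assoc G) : ⁅x, y + z⁆ = ⁅x, y⁆ + ⁅x, z⁆ := lie_add x y z

theorem ext_zero_lie (x : Cyc p ⊗[ℤ] Assoc G) : ⁅(0 : Cyc p ⊗[ℤ] Assoc G), x⁆ = 0 := zero_lie x

theorem ext_lie_zero (x : Cyc p ⊗[ℤ] Assoc G) : ⁅x, (0 : Cyc p ⊗[ℤ] Assoc G)⁆ = 0 := lie_zero x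

theorem ext_smul_lie (r : Cyc p) (x y : Cyc p ⊗[ℤ] Assoc G) : ⁅r • x, y⁆ = r • ⁅x, y⁆ :=
  smul_lie r x y

theorem ext_lie_smul (r : Cyc p) (x y : Cyc p ⊗[ℤ] Assoc G) : ⁅x, r • y⁆ = r • ⁅x, y⁆ :=
  lie_smul r x y

theorem extEndo_lie (α : MulAut G) (x y : Cyc p ⊗[ℤ] Assoc G) :
    extEndo α ⁅x, y⁆ = ⁅extEndo α x, extEndo α y⁆ := by
  induction x using TensorProduct.induction_on with
  | zero => simp only [ext_zero_lie, map_zero]
  | add a b ha hb => simp only [ext_add_lie, map_add, ha, hb]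
  | tmul r a =>
    induction y using TensorProduct.induction_on with
    | zero => simp only [ext_lie_zero, map_zero]
    | add u v hu hv => simp only [ext_lie_add, map_add, hu, hv]
    | tmul s b =>
      rw [LieAlgebra.ExtendScalars.bracket_tmul, extEndo_tmul, extEndo_tmul, extEndo_tmul,
        LieAlgebra.ExtendScalars.bracket_tmul, endo_lie]

theorem extEndo_iterate_tmul (α : MulAut G) (k : ℕ) (r : Cyc p) (x : Assoc G) :
    (⇑(extEndo α))^[k] (r ⊗ₜ[ℤ] x) = r ⊗ₜ[ℤ] (⇑(endo α))^[k] x := by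
  induction k generalizing x with
  | zero => rfl
  | succ k ih => rw [Function.iterate_succ_apply, extEndo_tmul, ih, ← Function.iterate_succ_apply]

/-- The eigen-components. -/
noncomputable def comp (α : MulAut G) : Fam p (Cyc p ⊗[ℤ] Assoc G) := fun i =>
  (LinearMap.eqLocus (extEndo α) (rootPow i • LinearMap.id)).toAddSubgroup

theorem mem_comp {α : MulAut G} {i : ZMod p} {x : Cyc p ⊗[ℤ] Assoc G} :
    x ∈ comp α i ↔ extEndo α x = rootPow i • x := Iff.rfl

theorem extEndo_iterate_add (α : MulAut G) (k : ℕ) (x y : Cyc p ⊗[ℤ] Assoc G) :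
    (⇑(extEndo α))^[k] (x + y) = (⇑(extEndo α))^[k] x + (⇑(extEndo α))^[k] y := by
  induction k generalizing x y with
  | zero => rfl
  | succ k ih => simp only [Function.iterate_succ_apply, map_add, ih]

theorem extEndo_iterate_zero (α : MulAut G) (k : ℕ) :
    (⇑(extEndo (p := p) α))^[k] 0 = 0 :=
  Function.iterate_fixed (map_zero _) k

variable [Finite G]

theorem card_nsmul_ext (x : Cyc p ⊗[ℤ] Assoc G) : Nat.card G • x = 0 := by
  induction x using TensorProduct.induction_on with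
  | zero => simp
  | add a b ha hb => rw [nsmul_add, ha, hb, add_zero]
  | tmul r a => rw [← TensorProduct.tmul_smul, card_nsmul_assoc, TensorProduct.tmul_zero]

variable (α : MulAut G) (hα : α ^ p = 1) (hfpf : ∀ g : G, α g = g → g = 1)
include hα hfpf

theorem exists_inverse_p : ∃ u : Cyc p, ∀ x : Cyc p ⊗[ℤ] Assoc G, (u * (p : Cyc p)) • x = x := by
  have hcop : Nat.Coprime p (Nat.card G) :=
    hp.out.coprime_iff_not_dvd.mpr (not_dvd_card_of_fpf α hα hfpf)
  have hb := Nat.gcd_eq_gcd_ab p (Nat.card G)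
  rw [hcop] at hb
  refine ⟨(Nat.gcdA p (Nat.card G) : Cyc p), fun x => ?_⟩
  have h1 : ((Nat.gcdA p (Nat.card G) : Cyc p) * (p : Cyc p)) =
      1 - (Nat.gcdB p (Nat.card G) : Cyc p) * (Nat.card G : Cyc p) := by
    have := congrArg (Int.cast : ℤ → Cyc p) hb
    push_cast at this
    rw [eq_sub_iff_add_eq, this]
    ring
  rw [h1, sub_smul, one_smul, mul_smul, Nat.cast_smul_eq_nsmul, card_nsmul_ext, smul_zero, sub_zero]

theorem eq_zero_of_fixed (x : Cyc p ⊗[ℤ] Assoc G) (hx : extEndo α x = x) : x = 0 := by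
  obtain ⟨u, hu⟩ := exists_inverse_p α hα hfpf
  have hsum : ∑ i ∈ Finset.range p, (⇑(extEndo α))^[i] x = 0 := by
    clear hx
    induction x using TensorProduct.induction_on with
    | zero => exact Finset.sum_eq_zero fun i _ => extEndo_iterate_zero α i
    | add a b ha hb => simp only [extEndo_iterate_add, Finset.sum_add_distrib, ha, hb, add_zero]
    | tmul r a =>
      simp only [extEndo_iterate_tmul, ← TensorProduct.tmul_sum, sum_endo_eq_zero α hα hfpf a,
        TensorProduct.tmul_zero]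
  rw [Finset.sum_congr rfl (fun i _ => Function.iterate_fixed hx i), Finset.sum_const,
    Finset.card_range, ← Nat.cast_smul_eq_nsmul (Cyc p)] at hsum
  rw [← hu x, mul_smul, hsum, smul_zero]

theorem isGraded_comp : IsGraded (comp (p := p) α) := by
  refine ⟨fun {i j x y} hx hy => ?_, ?_⟩
  · rw [mem_comp] at hx hy ⊢
    rw [extEndo_lie, hx, hy, ext_smul_lie, ext_lie_smul, smul_smul, rootPow_add]
  · rw [AddSubgroup.eq_bot_iff_forall]
    intro x hx
    rw [mem_comp, rootPow_zero, one_smul] at hx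
    exact eq_zero_of_fixed α hα hfpf x hx

theorem iterate_eq_self (x : Cyc p ⊗[ℤ] Assoc G) : (⇑(extEndo α))^[p] x = x := by
  induction x using TensorProduct.induction_on with
  | zero => exact extEndo_iterate_zero α p
  | add a b ha hb => rw [extEndo_iterate_add, ha, hb]
  | tmul r a => rw [extEndo_iterate_tmul, endo_iterate_self α hα]

theorem mem_iSup_comp (x : Cyc p ⊗[ℤ] Assoc G) : x ∈ ⨆ i, comp α i := by
  obtain ⟨u, hu⟩ := exists_inverse_p α hα hfpf
  have hper : ∀ i : ZMod p, extEndo α ((⇑(extEndo α))^[i.val] x) = (⇑(extEndo α))^[(i + 1).val] x := by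
    intro i
    rw [← Function.iterate_succ_apply' (⇑(extEndo α)), ZMod.val_add, ZMod.val_one]
    rcases Nat.lt_or_ge (i.val + 1) p with h | h
    · rw [Nat.mod_eq_of_lt h]
    · have hi : i.val + 1 = p := by have := i.val_lt; omega
      rw [Nat.succ_eq_add_one, hi, Nat.mod_self, iterate_eq_self α hα hfpf x]
      rfl
  let π : ZMod p → Cyc p ⊗[ℤ] Assoc G := fun j =>
    u • ∑ i : ZMod p, rootPow (-(j * i)) • (⇑(extEndo α))^[i.val] x
  have hπ : ∀ j, π j ∈ comp α j := by
    intro j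
    rw [mem_comp]
    simp only [π, map_smul, map_sum, hper, Finset.smul_sum, smul_smul]
    refine Fintype.sum_equiv (Equiv.addRight (1 : ZMod p)) _ _ fun i => ?_
    rw [Equiv.coe_addRight, mul_comm (rootPow j), mul_assoc, ← rootPow_add,
      show -(j * (i + 1)) + j = -(j * i) by ring]
  have hsum : ∑ j, π j = x := by
    have hin : ∀ i : ZMod p, ∑ j : ZMod p, rootPow (-(j * i)) • (⇑(extEndo α))^[i.val] x =
        if i = 0 then (p : Cyc p) • x else 0 := by
      intro i
      rw [← Finset.sum_smul]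
      split_ifs with hi
      · subst hi
        simp [rootPow_zero]
      · rw [show ∑ j : ZMod p, rootPow (-(j * i)) = 0 from ?_, zero_smul]
        rw [← sum_rootPow_mul (neg_ne_zero.mpr hi)]
        exact Finset.sum_congr rfl fun j _ => by ring_nf
    simp only [π, ← Finset.smul_sum]
    rw [Finset.sum_comm, Finset.sum_congr rfl (fun i _ => hin i), Finset.sum_ite_eq',
      if_pos (Finset.mem_univ _), smul_smul]
    exact hu x
  rw [← hsum]
  exact sum_mem fun j _ => le_iSup (comp α) j (hπ j)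

theorem sec_tmul_mem_gam (n : ℕ) : ∀ g ∈ lcsT G n,
    (1 : Cyc p) ⊗ₜ[ℤ] sec n g ∈ ⨆ k, gam (comp α) n k := by
  induction n with
  | zero => exact fun g _ => mem_iSup_comp α hα hfpf _
  | succ n ih =>
    intro g hg
    have hprod : ∀ a ∈ lcsT G n, ∀ b : G,
        (1 : Cyc p) ⊗ₜ[ℤ] sec (n + 1) ⁅a, b⁆ ∈ ⨆ k, gam (comp α) (n + 1) k := by
      intro a ha b
      have hb : b ∈ lcsT G 0 := by simp [lcsT]
      rw [show n + 1 = n + 0 + 1 by omega, ← lie_sec ha hb,
        show (1 : Cyc p) ⊗ₜ[ℤ] ⁅sec n a, sec 0 b⁆ = ⁅(1 : Cyc p) ⊗ₜ[ℤ] sec n a, (1 : Cyc p) ⊗ₜ[ℤ] sec 0 b⁆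
          by rw [LieAlgebra.ExtendScalars.bracket_tmul, one_mul]]
      have hy := mem_iSup_comp α hα hfpf ((1 : Cyc p) ⊗ₜ[ℤ] sec 0 b)
      refine AddSubgroup.iSup_induction (fun k => gam (comp α) n k)
        (C := fun z => ⁅z, (1 : Cyc p) ⊗ₜ[ℤ] sec 0 b⁆ ∈ ⨆ k, gam (comp α) (n + 0 + 1) k)
        (ih a ha) ?_ ?_ ?_
      · intro i z hz
        refine AddSubgroup.iSup_induction (fun k => comp α k)
          (C := fun w => ⁅z, w⁆ ∈ ⨆ k, gam (comp α) (n + 0 + 1) k) hy ?_ ?_ ?_
        · intro j w hw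
          exact le_iSup (fun k => gam (comp α) (n + 0 + 1) k) (i + j) (lie_mem_bra hz hw)
        · rw [ext_lie_zero]; exact zero_mem _
        · intro u v hu hv; rw [ext_lie_add]; exact add_mem hu hv
      · rw [ext_zero_lie]; exact zero_mem _
      · intro u v hu hv; rw [ext_add_lie]; exact add_mem hu hv
    let S : Subgroup G :=
      { carrier := {x | x ∈ lcsT G (n + 1) ∧
          (1 : Cyc p) ⊗ₜ[ℤ] sec (n + 1) x ∈ ⨆ k, gam (comp α) (n + 1) k}
        one_mem' := ⟨one_mem _, by rw [sec_one, TensorProduct.tmul_zero]; exact zero_mem _⟩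
        mul_mem' := fun {x y} hx hy => ⟨mul_mem hx.1 hy.1, by
          rw [sec_mul hx.1 hy.1, TensorProduct.tmul_add]; exact add_mem hx.2 hy.2⟩
        inv_mem' := fun {x} hx => ⟨inv_mem hx.1, by
          rw [sec_inv hx.1, TensorProduct.tmul_neg]; exact neg_mem hx.2⟩ }
    have hle : lcsT G (n + 1) ≤ S := by
      show (⊤ : Subgroup G).lowerCentralSeries (n + 1) ≤ S
      rw [Subgroup.lowerCentralSeries_succ, Subgroup.commutator_le]
      intro a ha b _
      refine ⟨?_, hprod a ha b⟩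
      have := comm_mem_lcsT ha (show b ∈ lcsT G 0 by simp [lcsT])
      simpa using this
    exact (hle hg).2

theorem lcsT_eq_bot_of_gam [Group.IsNilpotent G] {c : ℕ}
    (hgam : ∀ k : ZMod p, gam (comp (p := p) α) c k = ⊥) : lcsT G c = ⊥ := by
  refine CfsgLib.LowerCentral.eq_bot_of_le_commutator_top fun g hg => ?_
  have h := sec_tmul_mem_gam α hα hfpf c g hg
  simp only [hgam, iSup_bot, AddSubgroup.mem_bot] at h
  have h' := mem_of_sec_eq_zero hg (tmul_one_injective h)
  have h'' : lcsT G (c + 1) ≤ ⁅lcsT G c, ⊤⁆ := (Subgroup.lowerCentralSeries_succ _ _).le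
  exact h'' h'

/-- **Higman, Kreknin, Kostrikin**: the bound on the class, with the small cases. -/
theorem class_bound [Group.IsNilpotent G] :
    (p = 2 → lcsT G 1 = ⊥) ∧ (p = 3 → lcsT G 2 = ⊥) ∧
      lcsT G (∑ i ∈ Finset.range (2 ^ (p - 1) - 1), (p - 1) ^ i) = ⊥ := by
  have hC := isGraded_comp α hα hfpf
  refine ⟨fun h2 => ?_, fun h3 => ?_, lcsT_eq_bot_of_gam α hα hfpf (gam_eq_bot hC)⟩
  · subst h2
    exact lcsT_eq_bot_of_gam α hα hfpf fun k => by simpa using gam_eq_bot hC k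
  · exact lcsT_eq_bot_of_gam α hα hfpf (gam_two_eq_bot_of_three h3 hC)

end Group

end CfsgLib.LieFPF
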